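import Mathlib
import Cfsg.Agent.Lib.OTI2.Defs

/-! Vocabulary for O'Nan's theorem on the socle of a point stabiliser of a doubly transitive group.
See `plans/ON2.md`. -/

set_option autoImplicit false

namespace CfsgLib.ON2

open Subgroup MulAction CfsgLib.Tech CfsgLib.OTI2

universe u

variable {G : Type u} [Group G] {X : Type u} [MulAction G X]

/-- faithful and doubly transitive -/
structure T2 (G X : Type u) [Group G] [MulAction G X] : Prop where
  two : ∀ {x y x' y' : X}, x ≠ y → x' ≠ y' → ∃ g : G, g • x = x' ∧ g • y = y'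
  faith : ∀ g : G, (∀ x : X, g • x = x) → g = 1

/-- the stabiliser of `x` has a nontrivial normal subgroup of prime power order -/
def Loc (G : Type u) [Group G] [MulAction G X] (x : X) : Prop :=
  ∃ (p : ℕ) (R : Subgroup G), p.Prime ∧ IsPGroup p R ∧ R ≠ ⊥ ∧ R ≤ stabilizer G x ∧
    stabilizer G x ≤ normalizer (R : Set G)

/-- the stabiliser of `x` is almost simple -/
def ASi (G : Type u) [Group G] [MulAction G X] (x : X) : Prop :=
  ∃ N : Subgroup G, NS N ∧ N ≤ stabilizer G x ∧ stabilizer G x ≤ normalizer (N : Set G) ∧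
    ∀ g : G, g • x = x → (∀ n ∈ N, g * n = n * g) → g = 1

/-- no 2-central involution has a unique fixed point -/
def NH (G X : Type u) [Group G] [MulAction G X] : Prop :=
  ∀ (P : Subgroup G) (z : G) (x : X), IsSylowIn 2 P ⊤ → z ∈ P → orderOf z = 2 →
    (∀ s ∈ P, z * s = s * z) → z • x = x → ∃ y, y ≠ x ∧ z • y = y

/-- an equivariant family of normal subgroups of the point stabilisers -/
structure Fam (S : X → Subgroup G) : Prop extends T2 G X where
  fix : ∀ {x : X} {n : G}, n ∈ S x → n • x = x
  conj : ∀ {x : X} {n : G} (g : G), n ∈ S x → g * n * g⁻¹ ∈ S (g • x)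

/-- the socle of the point stabiliser is a minimal normal subgroup with at least two factors -/
structure U (S : X → Subgroup G) : Prop extends Fam S where
  ntriv : ∃ x y : X, x ≠ y
  semi : ∀ x, Semi (S x)
  cent : ∀ (x : X) (g : G), g • x = x → (∀ s ∈ S x, g * s = s * g) → g = 1
  tr : ∀ (x : X) (C D : Subgroup G), Fac (S x) C → Fac (S x) D → ∃ g : G, g • x = x ∧ cj g C = D
  many : ∀ (x : X) (C : Subgroup G), Fac (S x) C → ∃ D, Fac (S x) D ∧ D ≠ C
  nti : ∀ x y : X, x ≠ y → ∃ k ∈ S x, k ∈ S y ∧ k ≠ 1
  nh : NH G X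

/-! ### factors at distinct points meet: blocks -/

/-- `V` is an intersection of maximal order of factors at two distinct points -/
structure Blk (S : X → Subgroup G) (V : Subgroup G) : Prop where
  ne : V ≠ ⊥
  ex : ∃ (x y : X) (C D : Subgroup G), x ≠ y ∧ Fac (S x) C ∧ Fac (S y) D ∧ V = C ⊓ D
  max : ∀ (x y : X) (C D : Subgroup G), x ≠ y → Fac (S x) C → Fac (S y) D →
    Nat.card (C ⊓ D : Subgroup G) ≤ Nat.card V

/-- the points of the block `V` -/
def Gam (S : X → Subgroup G) (V : Subgroup G) : Set X := {z | ∃ C, Fac (S z) C ∧ V ≤ C}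

/-- the blocks through `x` and `y` -/
def Ed (S : X → Subgroup G) (x y : X) : Set (Subgroup G) :=
  {V | Blk S V ∧ x ∈ Gam S V ∧ y ∈ Gam S V}

/-- `V` and `W` lie in the same factor at `z` -/
def Same (S : X → Subgroup G) (z : X) (V W : Subgroup G) : Prop :=
  ∃ C, Fac (S z) C ∧ V ≤ C ∧ W ≤ C

/-- the common points of `V` and `W` at which they lie in different factors -/
def Dif (S : X → Subgroup G) (V W : Subgroup G) : Set X :=
  {z | z ∈ Gam S V ∧ z ∈ Gam S W ∧ ¬ Same S z V W}

/-- there are blocks, and they are proper subgroups of the factors -/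
structure Pr (S : X → Subgroup G) : Prop extends U S where
  blk : ∃ V, Blk S V
  pr : ∀ (V C : Subgroup G) (z : X), Blk S V → Fac (S z) C → V ≠ C

/-- one block through any two points -/
structure One (S : X → Subgroup G) : Prop extends Pr S where
  one : ∀ (x y : X) (V W : Subgroup G), x ≠ y → V ∈ Ed S x y → W ∈ Ed S x y → V = W

/-- `w` lies on a block through `x` of type `C` -/
def Ty (S : X → Subgroup G) (x : X) (C : Subgroup G) : Set X :=
  {w | w ≠ x ∧ ∃ V ∈ Ed S x w, V ≤ C}

/-! ### factors at distinct points meet trivially -/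

/-- the factors are TI -/
structure TI (S : X → Subgroup G) : Prop extends U S where
  ti : ∀ (x y : X) (C D : Subgroup G), x ≠ y → Fac (S x) C → Fac (S y) D →
    ∀ a ∈ C, a ∈ D → a = 1

/-- involutions of the factors have a unique fixed point -/
structure NF (S : X → Subgroup G) : Prop extends TI S where
  nf : ∀ (x y : X) (C : Subgroup G), Fac (S x) C → ∀ t ∈ C, orderOf t = 2 → t • y = y → y = x

/-- the factors of `T` not centralised by `s` -/
def supp (T : Subgroup G) (s : G) : Set (Subgroup G) := {C | Fac T C ∧ ∃ a ∈ C, s * a ≠ a * s}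

/-- the weight of `s` -/
noncomputable def wt (T : Subgroup G) (s : G) : ℕ := (supp T s).ncard

/-- the points `p` with `u ∈ S p` -/
def Pts (S : X → Subgroup G) (u : G) : Set X := {p | u ∈ S p}

/-- an involution of least weight among the involutions lying in two of the `S p` -/
structure MinW (S : X → Subgroup G) (u : G) (x y : X) : Prop where
  ne : x ≠ y
  ord : orderOf u = 2
  mx : u ∈ S x
  my : u ∈ S y
  min : ∀ (p q : X) (v : G), p ≠ q → orderOf v = 2 → v ∈ S p → v ∈ S q → wt (S x) u ≤ wt (S p) v

/-- the elements of `T` acting on every factor trivially or like the involution `u` -/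
def EE (T : Subgroup G) (u : G) : Set G :=
  {e | e ∈ T ∧ ∀ C, Fac T C → (∀ a ∈ C, e * a = a * e) ∨ ∀ a ∈ C, e * a * e⁻¹ = u * a * u⁻¹}

end CfsgLib.ON2
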